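/- Bender-Glauberman, section 10: the listed statements from the classes of `H50.Spec10`. -/
import Cfsg.Agent.H50.Spec10
import Cfsg.Agent.H50.Rank
import Cfsg.Agent.H46.Nil
import Cfsg.Agent.H46.Quo
import Cfsg.Agent.H51.MinSimple

open Cfsg hiding pRank
open H46 Subgroup

namespace H50
open _root_.H50

universe u
variable {G : Type u} [Group G]

theorem isPiHall_of_top {π : Set ℕ} {H : Subgroup G} (h : IsPiHallOf π H ⊤) : IsPiHall π H :=
  ⟨h.2.1, fun p hp hπ => by simpa using h.2.2 p hp hπ⟩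

theorem isSd_of_isComplIn {A B M : Subgroup G} (h : IsComplIn A B M) (hn : B ≤ Nrm A) :
    IsSd A B M := by
  refine ⟨hn, h.2.2.1, le_antisymm (sup_le h.1 h.2.1) fun m hm => ?_⟩
  obtain ⟨a, ha, b, hb, rfl⟩ := h.2.2.2 m hm
  exact mul_mem_sup ha hb

theorem rankLE_of_equiv {A B : Type*} [Group A] [Group B] (e : A ≃* B) {n : ℕ} (h : RankLE n A) :
    RankLE n B := by
  intro p hp X hX hpow
  have := h p hp (X.map e.symm.toMonoidHom) ?_ ?_
  · rwa [card_map_of_injective e.symm.injective] at this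
  · infer_instance
  · rintro _ ⟨x, hx, rfl⟩
    rw [← map_pow, hpow x hx, map_one]

theorem row1350 [T10_2.{u}] [Finite G] (hG : IsMinSimpleOddOrder G)
    (M : Subgroup G) (hM : IsCoatom M) :
    IsPiHallOf (sigma M) (sigmaCore M) M ∧ IsPiHall (sigma M) (sigmaCore M) ∧
      ∀ N : Subgroup G, M ≤ normalizer (N : Set G) → IsPiHallOf (sigma M) N M →
        N = sigmaCore M :=
  ⟨T10_2.Msigma_Hall hG hM, isPiHall_of_top (T10_2.Msigma_Hall_G hG hM),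
    fun _ hn hN => (hN.piCoreOf_eq hn).symm⟩

theorem row1404 [T10_1.{u}] [Finite G] (hG : IsMinSimpleOddOrder G)
    (M : Subgroup G) (hM : IsCoatom M) (p : ℕ) (hp : p ∈ sigma M)
    (X : Subgroup G) (hXp : IsPGroup p X) (hXM : X ≤ M) :
    (∀ g : G, X.map (MulAut.conj g).toMonoidHom ≤ M →
      ∃ m ∈ M, ∃ c ∈ centralizer (X : Set G), g = m * c) ∧
      normalizer (X : Set G) = (M ⊓ normalizer (X : Set G)) ⊔ centralizer (X : Set G) :=
  ⟨fun g hg => T10_1.conj hG hM hp hXp g hXM hg,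
    by rw [sup_comm]; exact (T10_1.norm hG hM hp hXp hXM).symm⟩

theorem row1405 [T10_2.{u}] [Finite G] (hG : IsMinSimpleOddOrder G)
    (M : Subgroup G) (hM : IsCoatom M) :
    IsPiHallOf (alpha M) (alphaCore M) M ∧ IsPiHall (alpha M) (alphaCore M) ∧
      alphaCore M ≤ sigmaCore M ∧ RankLE 2 (↥M ⧸ piCore (alpha M) ↥M) ∧
      Group.IsNilpotent ↥((_root_.commutator ↥M).map (QuotientGroup.mk' (piCore (alpha M) ↥M))) := by
  refine ⟨T10_2.Malpha_Hall hG hM, isPiHall_of_top (T10_2.Malpha_Hall_G hG hM),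
    T10_2.Malpha_sub_Msigma hG hM, ?_, ?_⟩
  · have h := rank_le_iff_rankLE.1 (T10_2.Malpha_quo_rank2 hG hM)
    obtain ⟨e⟩ := nonempty_quo_equiv_map (C := piCore (alpha M) M) (le_refl M)
    have h2 := rankLE_of_equiv e h
    rw [subgroupOf_self, ← MonoidHom.range_eq_map, QuotientGroup.range_mk'] at h2
    exact rankLE_of_equiv topEquiv h2
  · have h := T10_2.Malpha_quo_nil hG hM
    obtain ⟨e⟩ := nonempty_quo_equiv_map (C := piCore (alpha M) M) (H := ⁅M, M⁆)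
      (der_le M)
    rw [← der_subgroupOf]
    exact Group.nilpotent_of_mulEquiv e (_h := h)

theorem row1406 [T10_3.{u}] [Finite G] (hG : IsMinSimpleOddOrder G)
    (M : Subgroup G) (hM : IsCoatom M) (X : Subgroup G) (hXM : X ≤ M)
    (hXα : ∀ p : ℕ, p.Prime → p ∣ Nat.card X → p ∉ alpha M)
    (hr : ¬ RankLE 1 ↥(alphaCore M ⊓ centralizer (X : Set G))) :
    InUniqueMaximal (M ⊓ centralizer (X : Set G)) :=
  T10_3.out hG hM hXM hXα (lt_rank_iff.2 hr)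

theorem row1407 [T10_4.{u}] [Finite G] (hG : IsMinSimpleOddOrder G)
    (M : Subgroup G) (hM : IsCoatom M) (p : ℕ) [hpp : Fact p.Prime] (hpM : p ∣ Nat.card M)
    (hp : p ∉ sigma M) (P : Sylow p M) :
    ∃ x : G, x ∈ ((center ↥(P : Subgroup M)).map (P : Subgroup M).subtype).map M.subtype ∧
      orderOf x = p ∧ IsZGroup ↥(alphaCore M ⊓ centralizer ({x} : Set G)) ∧
        ¬ (centralizer ({x} : Set G) ≤ M ∧
          ∀ L : Subgroup G, IsCoatom L → centralizer ({x} : Set G) ≤ L → L = M) := by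
  have hS := isSylowOf_map_subtype P
  obtain ⟨x, hx, h1, h2, h3⟩ := T10_4.cent1_sigma'_Zgroup hG hM hpp.out hp hS
    (hS.ne_bot hpp.out rfl hpM)
  rw [mem_omegaOne_comm (comm_zc _)] at hx
  obtain ⟨⟨⟨y, hy, rfl⟩, hc⟩, hxp⟩ := hx
  refine ⟨_, ⟨y, ⟨⟨y, hy⟩, mem_center_iff.2 fun z => ?_, rfl⟩, rfl⟩, orderOf_eq_prime hxp h1, h3,
    fun h => h2 ⟨hM, h.1, h.2⟩⟩
  exact Subtype.ext (Subtype.ext (hc _ ⟨z, z.2, rfl⟩))

theorem row1408 [T10_4.{u}] [Finite G] (hG : IsMinSimpleOddOrder G)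
    (M : Subgroup G) (hM : IsCoatom M) (p : ℕ) [hpp : Fact p.Prime] (hp : p ∉ sigma M)
    (hr2 : PRankLE p 2 M) (hr1 : ¬ PRankLE p 1 M) :
    ¬ IsIdealPrime p G ∧ ∀ A : Subgroup G, A ≤ M → IsElementaryAbelian p A → Nat.card A = p ^ 2 →
        ∀ B : Subgroup G, IsElementaryAbelian p B → A ≤ B → B = A :=
  ⟨T10_4.sigma'_rank2_beta' hG hM hpp.out hp
      (le_antisymm ((pRank_le_iff hpp.out).2 hr2) ((lt_pRank_iff hpp.out).2 hr1)),
    fun _ h1 h2 h3 B hB hAB =>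
      (T10_4.sigma'_rank2_max hG hM hpp.out hp ⟨h1, h2, h3⟩).2.2 B le_top hB hAB⟩

theorem row1409 [T10_4.{u}] [T10_5.{u}] [Finite G] (hG : IsMinSimpleOddOrder G)
    (M : Subgroup G) (hM : IsCoatom M) (p : ℕ) [hpp : Fact p.Prime] (hp : p ∉ sigma M)
    (X : Subgroup G) (hX : Nat.card X = p) (hNX : normalizer (X : Set G) ≤ M) :
    (PRankLE p 2 M ∧ ¬ PRankLE p 1 M) ∧ ¬ IsIdealPrime p G ∧
      ∃ A : Subgroup G, IsElementaryAbelian p A ∧ Nat.card A = p ^ 2 ∧ X ≤ A := by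
  have hE : ElemAb p 1 X ⊤ := elemAb_one_of_card hpp.out le_top hX
  have hr := T10_5.sigma'_norm_mmax_rank2 hG hM hpp.out hp hE.isPGroup hNX
  obtain ⟨A, hA, hXA⟩ := T10_5.sigma'1Elem_sub_p2Elem hG hM hpp.out hp hE hNX
  exact ⟨⟨(pRank_le_iff hpp.out).1 hr.le, (lt_pRank_iff hpp.out).1 (by omega)⟩,
    T10_4.sigma'_rank2_beta' hG hM hpp.out hp hr, A, hA.ea, hA.card, hXA⟩

theorem row1410 [T10_6.{u}] [Finite G] (hG : IsMinSimpleOddOrder G) (p : ℕ) [hpp : Fact p.Prime]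
    (H : Subgroup G) (hH : H ≠ ⊤) : PLengthLE p 1 H := T10_6.out hG hpp.out hH

theorem row1411 [T10_7.{u}] [Finite G] (hG : IsMinSimpleOddOrder G) (p : ℕ) [hpp : Fact p.Prime]
    (P : Sylow p G) (V : Subgroup G)
    (hV : IsComplIn (P : Subgroup G) V (normalizer ((P : Subgroup G) : Set G))) :
    (P : Subgroup G) = ⁅(P : Subgroup G), V⁆ ∧
      (P : Subgroup G) ≤ ⁅normalizer ((P : Subgroup G) : Set G), normalizer ((P : Subgroup G) : Set G)⁆ :=
  ⟨(T10_7.mFT_Sylow_sdprod_commg hG hpp.out (isSylowOf_top P) (isSd_of_isComplIn hV hV.2.1)).symm,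
    T10_7.mFT_Sylow_der1 hG hpp.out (isSylowOf_top P)⟩

theorem row1412 [T10_7.{u}] [Finite G] (hG : IsMinSimpleOddOrder G) (p : ℕ) [hpp : Fact p.Prime]
    (P : Sylow p G) (hr : PRankLE p 2 (P : Subgroup G)) :
    IsMulCommutative (P : Subgroup G) ∨ ∃ P₁ P₂ : Subgroup G, P₁ ⊔ P₂ = (P : Subgroup G) ∧
      (∀ a ∈ P₁, ∀ b ∈ P₂, a * b = b * a) ∧
        ¬ IsMulCommutative P₁ ∧ Nat.card P₁ = p ^ 3 ∧ Monoid.exponent P₁ = p ∧ IsCyclic P₂ ∧
        closure {x : G | x ∈ P₂ ∧ x ^ p = 1} = P₁ ⊓ centralizer (P₁ : Set G) := by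
  by_cases hc : IsMulCommutative (P : Subgroup G)
  · exact Or.inl hc
  obtain ⟨S, C, h1, h2, h3, h4, h5, h6⟩ := T10_7.mFT_rank2_Sylow_cprod hG hpp.out (isSylowOf_top P)
    ((pRank_le_iff hpp.out).2 hr) hc
  refine Or.inr ⟨S, C, h5.sup, fun a ha b hb => h5.cent hb a ha, h1, h2, ?_, h4, h6⟩
  have hd : Monoid.exponent S ∣ p :=
    Monoid.exponent_dvd_of_forall_pow_eq_one fun x => Subtype.ext (h3 x x.2)
  rcases (Nat.dvd_prime hpp.out).1 hd with e | e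
  · exfalso
    rw [Monoid.exp_eq_one_iff] at e
    exact h1 ⟨⟨fun a b => Subsingleton.elim _ _⟩⟩
  · exact e

theorem row1413 [T10_7.{u}] [Finite G] (hG : IsMinSimpleOddOrder G) (p : ℕ) [hpp : Fact p.Prime]
    (P : Sylow p G) :
    (∀ (Q : Subgroup G) (x : G), Q ≤ (P : Subgroup G) →
      Q.map (MulAut.conj x).toMonoidHom ≤ (P : Subgroup G) →
        ∃ y ∈ normalizer ((P : Subgroup G) : Set G),
          Q.map (MulAut.conj x).toMonoidHom = Q.map (MulAut.conj y).toMonoidHom) ∧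
      (∀ Q : Subgroup G, Q ≤ (P : Subgroup G) →
        ¬ p ∣ ((P : Subgroup G) ⊓ normalizer (Q : Set G)).relIndex (normalizer (Q : Set G))) ∧
      (∀ (R Q : Subgroup G), IsPGroup p R → Q ≤ (P : Subgroup G) ⊓ R →
        normalizer ((P : Subgroup G) : Set G) ≤ normalizer (Q : Set G) →
        normalizer (R : Set G) ≤ normalizer (Q : Set G)) :=
  ⟨fun _ _ h1 h2 => T10_7.mFT_sub_Sylow_trans hG hpp.out (isSylowOf_top P) h1 h2,
    fun _ h => (T10_7.mFT_subnorm_Sylow hG hpp.out (isSylowOf_top P) h).not_dvd hpp.out,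
    fun _ _ h1 h2 h3 => T10_7.mFT_Sylow_normalS hG hpp.out (isSylowOf_top P) h1 h2 h3⟩

theorem row1414 [T10_2.{u}] [T10_8.{u}] [Finite G] (hG : IsMinSimpleOddOrder G)
    (M : Subgroup G) (hM : IsCoatom M) :
    IsPiHallOf (beta M) (piCoreOf (beta M) M) M ∧ IsPiHall (beta M) (piCoreOf (beta M) M) ∧
      (∃ H : Subgroup G, IsPiHallOf {q | q.Prime ∧ q ∉ beta M} H ⁅M, M⁆ ∧ Group.IsNilpotent H) ∧
      (∃ H : Subgroup G, IsPiHallOf {q | q.Prime ∧ q ∉ beta M} H (sigmaCore M) ∧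
        Group.IsNilpotent H) ∧
      ∀ p : ℕ, p.Prime → p ∣ Nat.card M → p ∉ beta M →
        HasNormalPComplement p ↥⁅M, M⁆ ∧ HasNormalPComplement p ↥(sigmaCore M) ∧
        ∀ q : ℕ, q.Prime → q ∣ (pPrimeCore p ↥M).index → q ≤ p := by
  have key : ∀ K : Subgroup G, K ≤ ⁅M, M⁆ →
      ∃ H : Subgroup G, IsPiHallOf {q | q.Prime ∧ q ∉ beta M} H K ∧ Group.IsNilpotent H := by
    intro K hK
    obtain ⟨H, hH⟩ := hall_exists {q | q.Prime ∧ q ∉ beta M}
      (sol_of_le (H51.mmax_sol hG hM) (hK.trans (der_le M)))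
    exact ⟨H, hH, T10_8.beta'_der1_nil hG hM (fun q hq hd => (hH.isPi q hq hd).2) (hH.le.trans hK)⟩
  refine ⟨T10_8.Mbeta_Hall hG hM, isPiHall_of_top (T10_8.Mbeta_Hall_G hG hM), key _ le_rfl,
    key _ (T10_2.Msigma_der1 hG hM), fun p hp _ hβ => ?_⟩
  obtain ⟨h1, h2, h3⟩ := T10_8.beta_max_pdiv hG hM hp hβ
  refine ⟨(npc_iff hp).1 h1, (npc_iff hp).1 h2, fun q hq hd => h3 q hq ?_⟩
  rwa [Op'_eq_pPrimeCore hp, relIndex, subgroupOf, comap_map_eq_self_of_injective M.subtype_injective]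

end H50
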